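import Cfsg.Agent.S2119

set_option autoImplicit false

namespace Cfsg.Agent.LyZ

theorem exists_sigma {G : Type*} [Group G] [Finite G] (C₀ : Subgroup G) (z : G)
    (f : C₀ →* alternatingGroup (Fin 11)) (hf : Function.Surjective f)
    (hker : ∀ x : C₀, f x = 1 ↔ (x : G) ∈ Subgroup.zpowers z)
    (y : G) (hy : ∀ x ∈ C₀, y * x * y⁻¹ ∈ C₀) (hyz : y * z = z * y) :
    ∃ σ : Equiv.Perm (Fin 11), ∀ x (hx : x ∈ C₀),
      ((f ⟨y * x * y⁻¹, hy x hx⟩ : alternatingGroup (Fin 11)) : Equiv.Perm (Fin 11)) =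
        σ * (f ⟨x, hx⟩ : alternatingGroup (Fin 11)) * σ⁻¹ := by
  classical
  -- conjugation by y on C₀
  let c : C₀ →* C₀ :=
    { toFun := fun x => ⟨y * x * y⁻¹, hy x x.2⟩
      map_one' := by ext; simp
      map_mul' := by intro a b; ext; simp [mul_assoc] }
  -- f ∘ c has kernel containing that of f
  have hk : ∀ a b : C₀, f a = f b ↔ f (c a) = f (c b) := by
    intro a b
    have h1 : f a = f b ↔ ((a⁻¹ * b : C₀) : G) ∈ Subgroup.zpowers z := by
      rw [← hker, map_mul, map_inv, inv_mul_eq_one]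
    have h2 : f (c a) = f (c b) ↔ (((c a)⁻¹ * c b : C₀) : G) ∈ Subgroup.zpowers z := by
      rw [← hker, map_mul, map_inv, inv_mul_eq_one]
    rw [h1, h2]
    have h3 : (((c a)⁻¹ * c b : C₀) : G) = y * ((a⁻¹ * b : C₀) : G) * y⁻¹ := by
      simp [c, mul_assoc]
    rw [h3]
    constructor
    · rintro ⟨k, hk⟩
      refine ⟨k, ?_⟩
      show z ^ k = _
      rw [← show z ^ k = ((a⁻¹ * b : C₀) : G) from hk]
      have : Commute y (z ^ k) := (show Commute y z from hyz).zpow_right k
      rw [this.eq]; group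
    · rintro ⟨k, hk⟩
      refine ⟨k, ?_⟩
      show z ^ k = _
      have h4 : z ^ k = y * ((a⁻¹ * b : C₀) : G) * y⁻¹ := hk
      have : Commute y (z ^ k) := (show Commute y z from hyz).zpow_right k
      have h5 : ((a⁻¹ * b : C₀) : G) = y⁻¹ * z ^ k * y := by rw [h4]; group
      rw [h5, mul_assoc, ← this.eq]; group
  let s : alternatingGroup (Fin 11) → C₀ := Function.surjInv hf
  have hs : ∀ a, f (s a) = a := Function.surjInv_eq hf
  let g : alternatingGroup (Fin 11) →* alternatingGroup (Fin 11) :=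
    { toFun := fun a => f (c (s a))
      map_one' := by
        rw [← map_one f, ← map_one c]
        exact (hk _ _).1 (by rw [hs, map_one])
      map_mul' := by
        intro a b
        rw [← map_mul, ← map_mul]
        exact (hk _ _).1 (by rw [hs, map_mul, hs, hs]) }
  have hg : ∀ x : C₀, g (f x) = f (c x) := fun x => (hk _ _).1 (by rw [hs])
  have hinj : Function.Injective g := by
    intro a b hab
    have : f (c (s a)) = f (c (s b)) := hab
    have := (hk _ _).2 this
    rwa [hs, hs] at this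
  have hbij : Function.Bijective g := Finite.injective_iff_bijective.1 hinj
  let e : MulAut (alternatingGroup (Fin 11)) := MulEquiv.ofBijective g hbij
  obtain ⟨σ, hσ⟩ := (Cfsg.Agent.S2119.result 11 (by norm_num) (by norm_num)).2 e
  refine ⟨σ, fun x hx => ?_⟩
  have h1 : f ⟨y * x * y⁻¹, hy x hx⟩ = e (f ⟨x, hx⟩) := (hg ⟨x, hx⟩).symm
  rw [h1, ← hσ]
  rfl

end Cfsg.Agent.LyZ
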